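import Cfsg.Agent.CharP.WeakTransferControl
import Cfsg.Agent.Transfer.Control
import Cfsg.Agent.Eq.Def_BaumannBlocks

/-!
The Hall–Wielandt theorem in Yoshida's form: a weakly closed `Q` with `[P, z; p - 1] = 1` for
`z ∈ Q` controls the `p`-residual.
-/

set_option autoImplicit false

namespace CfsgLib.CharP

variable {G : Type*} [Group G] {p : ℕ}

theorem pResidualOf_normalizer_eq [Finite G] [hp : Fact p.Prime] (P : Sylow p G) (Q : Subgroup G)
    (hQ : Cfsg.IsWeaklyClosed Q (P : Subgroup G))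
    (h : ∀ u ∈ (P : Subgroup G), ∀ z ∈ Q, (commMap z)^[p - 1] u = 1) :
    Cfsg.pResidualOf p (Subgroup.normalizer (Q : Set G)) =
      Cfsg.pResidual p G ⊓ Subgroup.normalizer (Q : Set G) := by
  set H := Subgroup.normalizer (Q : Set G) with hH
  have hPH : (P : Subgroup G) ≤ H := by
    intro s hs
    rw [hH, Subgroup.mem_normalizer_iff_map_conj_eq]
    refine hQ.2 s ?_
    conv_rhs => rw [← Subgroup.mem_normalizer_iff_map_conj_eq.mp (Subgroup.le_normalizer hs)]
    exact Subgroup.map_mono hQ.1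
  have hctl : commutator G ⊓ (P : Subgroup G) ≤ ⁅H, H⁆ := by
    by_contra hne
    obtain ⟨A, _, -, R, z, hz, τ, x, hx, hRP, hzQ, -, -, -, hτ⟩ :=
      exists_witness_of_inter_ne P Q hQ fun e => hne (inf_comm _ (P : Subgroup G) ▸ e.le.trans inf_le_right)
    refine hτ ?_
    rw [show (⟨(commMap z)^[p - 1] x, commMap_iterate_mem hz hx (p - 1)⟩ : R) = 1 from
      Subtype.ext (h x (hRP hx) z hzQ), map_one]
  have heq := Transfer.inf_pResidual_eq_of_control P H hPH hctl
  haveI : (Cfsg.pResidual p H).Normal := pResidual_normal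
  refine le_antisymm (le_inf (Transfer.map_pResidual_le_pResidual H) (Subgroup.map_subtype_le _)) ?_
  rintro a ⟨haR, haH⟩
  obtain ⟨x, hx, r, hr, hxr⟩ := Subgroup.mem_sup_of_normal_right.mp
    ((Transfer.sylow_sup_pResidual (P.subtype hPH)).symm ▸ Subgroup.mem_top (⟨a, haH⟩ : H) :
      (⟨a, haH⟩ : H) ∈ ((P.subtype hPH : Sylow p H) : Subgroup H) ⊔ Cfsg.pResidual p H)
  have ha : a = (x : G) * r := congrArg Subtype.val hxr.symm
  have hr' : (r : G) ∈ (Cfsg.pResidual p H).map H.subtype := ⟨r, hr, rfl⟩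
  have hxR : (x : G) ∈ (P : Subgroup G) ⊓ Cfsg.pResidual p G := by
    refine Subgroup.mem_inf.2 ⟨hx, ?_⟩
    have := mul_mem (show a ∈ Cfsg.pResidual p G from haR)
      (inv_mem (show (r : G) ∈ Cfsg.pResidual p G from Transfer.map_pResidual_le_pResidual H hr'))
    rwa [ha, mul_inv_cancel_right] at this
  rw [ha]
  exact mul_mem (heq.le hxR).2 hr'

end CfsgLib.CharP
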