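import Mathlib
import Cfsg.Agent.Eq.Def_Transfer
import Cfsg.Agent.Transfer.Frobenius

/-!
# Transfer into the normalizer of a weakly closed subgroup

If the transfer of a character of exponent `p` of `N(W)` differs from that character on the Sylow
subgroup, then some iterated commutator `[s, z; p - 1]` with `z ∈ W` survives in a character of a
subgroup of `S` (Yoshida's argument).
-/

set_option autoImplicit false

open scoped Classical

namespace CfsgLib.CharP

variable {G : Type*} [Group G] {p : ℕ}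

/-- `y ↦ [y, z]`. -/
def commMap (z y : G) : G := y⁻¹ * z⁻¹ * y * z

theorem commMap_mem {R : Subgroup G} {z : G} (hz : z ∈ Subgroup.normalizer (R : Set G)) {y : G}
    (hy : y ∈ R) : commMap z y ∈ R := by
  have h := (Subgroup.mem_normalizer_iff''.mp hz y).mp hy
  have : commMap z y = y⁻¹ * (z⁻¹ * y * z) := by simp [commMap, mul_assoc]
  rw [this]
  exact mul_mem (inv_mem hy) h

theorem commMap_iterate_mem {R : Subgroup G} {z : G} (hz : z ∈ Subgroup.normalizer (R : Set G))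
    {y : G} (hy : y ∈ R) : ∀ j : ℕ, (commMap z)^[j] y ∈ R
  | 0 => hy
  | j + 1 => by
    rw [Function.iterate_succ_apply']
    exact commMap_mem hz (commMap_iterate_mem hz hy j)

theorem sum_range_choose (j : ℕ) : ∀ n : ℕ, ∑ k ∈ Finset.range n, k.choose j = n.choose (j + 1)
  | 0 => by simp
  | n + 1 => by
    rw [Finset.sum_range_succ, sum_range_choose j n, Nat.choose_succ_succ, add_comm]

variable {A : Type*} [CommGroup A]

/-- A homomorphism after `k`-fold conjugation, in terms of the iterated commutators. -/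
theorem apply_conj_pow {R : Subgroup G} {z : G} (hz : z ∈ Subgroup.normalizer (R : Set G))
    (τ : R →* A) : ∀ (k : ℕ) (y : G) (hy : y ∈ R) (h : (z ^ k)⁻¹ * y * z ^ k ∈ R),
      τ ⟨(z ^ k)⁻¹ * y * z ^ k, h⟩ =
        ∏ j ∈ Finset.range (k + 1), τ ⟨(commMap z)^[j] y, commMap_iterate_mem hz hy j⟩ ^ k.choose j := by
  intro k
  induction k with
  | zero => intro y hy h; simp
  | succ k ih =>
    intro y hy h
    have hk : ∀ x ∈ R, (z ^ k)⁻¹ * x * z ^ k ∈ R := fun x hx =>
      (Subgroup.mem_normalizer_iff''.mp (pow_mem hz k) x).mp hx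
    have hc := commMap_mem hz hy
    have hsplit : (⟨(z ^ (k + 1))⁻¹ * y * z ^ (k + 1), h⟩ : R) =
        ⟨_, hk y hy⟩ * ⟨_, hk _ hc⟩ := by
      apply Subtype.ext
      show (z ^ (k + 1))⁻¹ * y * z ^ (k + 1) =
        (z ^ k)⁻¹ * y * z ^ k * ((z ^ k)⁻¹ * (y⁻¹ * z⁻¹ * y * z) * z ^ k)
      rw [pow_succ']
      group
    rw [hsplit, map_mul, ih y hy, ih _ hc]
    have e : ∀ j, (⟨(commMap z)^[j] (commMap z y), commMap_iterate_mem hz hc j⟩ : R) =
        ⟨(commMap z)^[j + 1] y, commMap_iterate_mem hz hy (j + 1)⟩ := fun j => rfl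
    simp only [e]
    rw [Finset.prod_range_succ' (n := k + 1), Finset.prod_range_succ' (n := k)]
    conv_rhs => enter [1, 2, j]; rw [Nat.choose_succ_succ, pow_add]
    rw [Finset.prod_mul_distrib]
    have hlast : ∏ j ∈ Finset.range (k + 1),
        τ ⟨(commMap z)^[j + 1] y, commMap_iterate_mem hz hy (j + 1)⟩ ^ k.choose (j + 1) =
      ∏ j ∈ Finset.range k,
        τ ⟨(commMap z)^[j + 1] y, commMap_iterate_mem hz hy (j + 1)⟩ ^ k.choose (j + 1) := by
      rw [Finset.prod_range_succ, Nat.choose_succ_self, pow_zero, mul_one]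
    simp only [Nat.succ_eq_add_one, Nat.choose_zero_right, pow_one] at hlast ⊢
    rw [hlast]
    ac_rfl

/-- In exponent `p` the product over the `p` conjugates is the value at `[y, z; p - 1]`. -/
theorem prod_conj_eq [hp : Fact p.Prime] (hA : ∀ a : A, a ^ p = 1) {R : Subgroup G} {z : G}
    (hz : z ∈ Subgroup.normalizer (R : Set G)) (τ : R →* A) {y : G} (hy : y ∈ R) :
    ∏ k ∈ Finset.range p, τ ⟨(z ^ k)⁻¹ * y * z ^ k,
        (Subgroup.mem_normalizer_iff''.mp (pow_mem hz k) y).mp hy⟩ =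
      τ ⟨(commMap z)^[p - 1] y, commMap_iterate_mem hz hy (p - 1)⟩ := by
  set t : ℕ → A := fun j => τ ⟨(commMap z)^[j] y, commMap_iterate_mem hz hy j⟩ with ht
  have hstep : ∀ k ∈ Finset.range p, τ ⟨(z ^ k)⁻¹ * y * z ^ k,
        (Subgroup.mem_normalizer_iff''.mp (pow_mem hz k) y).mp hy⟩ =
      ∏ j ∈ Finset.range p, t j ^ k.choose j := by
    intro k hk
    rw [apply_conj_pow hz τ k y hy]
    refine Finset.prod_subset (Finset.range_subset_range.mpr (Finset.mem_range.mp hk))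
      fun j _ hj => ?_
    rw [Finset.mem_range, not_lt] at hj
    rw [Nat.choose_eq_zero_of_lt (by omega), pow_zero]
  rw [Finset.prod_congr rfl hstep, Finset.prod_comm]
  simp only [Finset.prod_pow_eq_pow_sum, sum_range_choose]
  rw [Finset.prod_eq_single (p - 1)]
  · rw [Nat.sub_add_cancel hp.out.one_le, Nat.choose_self, pow_one]
  · intro j hj hne
    rw [Finset.mem_range] at hj
    obtain ⟨c, hc⟩ : p ∣ p.choose (j + 1) := hp.out.dvd_choose_self (by omega) (by omega)
    rw [hc, pow_mul, hA, one_pow]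
  · intro h
    exact absurd (Finset.mem_range.mpr (Nat.sub_lt hp.out.pos Nat.one_pos)) h

/-- The transfer is the product over the fixed cosets when the values at `p`-th multiples vanish. -/
theorem transfer_eq_prod_fixed {K : Type*} [Group K] [Finite K] [Fintype K] [hp : Fact p.Prime]
    (H : Subgroup K) [Fintype (K ⧸ H)] (θ : H →* A) (u : K) {n : ℕ} (hu : u ^ p ^ n = 1)
    (hvan : ∀ (m : ℕ) (k : K) (h : k⁻¹ * u ^ m * k ∈ H), p ∣ m → θ ⟨_, h⟩ = 1) :
    MonoidHom.transfer θ u = ∏ x : K ⧸ H,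
      if h : x.out⁻¹ * u * x.out ∈ H then θ ⟨_, h⟩ else 1 := by
  letI : Fintype (Quotient (MulAction.orbitRel (Subgroup.zpowers u) (K ⧸ H))) := Fintype.ofFinite _
  rw [MonoidHom.transfer_eq_prod_quotient_orbitRel_zpowers_quot θ u]
  have hfix : ∀ x : K ⧸ H, (x.out⁻¹ * u * x.out ∈ H ↔ u • x = x) := by
    intro x
    conv_rhs => rw [← QuotientGroup.out_eq' x, MulAction.Quotient.smul_mk, QuotientGroup.eq]
    rw [← inv_mem_iff]
    simp [mul_assoc]
  refine Finset.prod_bij_ne_one (fun q _ _ => q.out) (fun _ _ _ => Finset.mem_univ _) ?_ ?_ ?_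
  · intro q₁ _ _ q₂ _ _ h
    rw [← Quotient.out_eq q₁, h, Quotient.out_eq]
  · intro x _ hx
    have hx' : x.out⁻¹ * u * x.out ∈ H := by
      by_contra h
      rw [dif_neg h] at hx
      exact hx rfl
    set q : Quotient (MulAction.orbitRel (Subgroup.zpowers u) (K ⧸ H)) := Quotient.mk'' x
    have hq : q.out = x := by
      have hmk : MulAction.orbitRel (Subgroup.zpowers u) (K ⧸ H) q.out x := Quotient.mk_out' x
      obtain ⟨⟨g, hg⟩, hgx⟩ := MulAction.orbitRel_apply.mp hmk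
      have : g ∈ MulAction.stabilizer K x :=
        Subgroup.zpowers_le.mpr (MulAction.mem_stabilizer_iff.mpr ((hfix x).mp hx')) hg
      exact hgx.symm.trans (MulAction.mem_stabilizer_iff.mp this)
    have hper : Function.minimalPeriod (u • ·) q.out = 1 := by
      rw [hq, Function.minimalPeriod_eq_one_iff_isFixedPt]
      exact (hfix x).mp hx'
    refine ⟨q, Finset.mem_univ _, ?_, hq⟩
    rw [dif_pos hx'] at hx
    convert hx using 3
    rw [hq] at hper
    simp only [hq, hper, pow_one]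
  · intro q _ hq
    set m := Function.minimalPeriod (u • ·) q.out with hm
    have hdvd : m ∣ p ^ n := by
      refine Function.IsPeriodicPt.minimalPeriod_dvd ?_
      show (u • ·)^[p ^ n] q.out = q.out
      rw [smul_iterate, hu]
      exact one_smul K _
    have hm1 : m = 1 := by
      obtain ⟨i, -, hi⟩ := (Nat.dvd_prime_pow hp.out).mp hdvd
      rcases Nat.eq_zero_or_pos i with rfl | hi0
      · simpa using hi
      · exact absurd (hvan m q.out.out _ (hi ▸ dvd_pow_self p hi0.ne')) hq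
    have hfx : q.out.out⁻¹ * u * q.out.out ∈ H := by
      rw [hfix]
      exact Function.minimalPeriod_eq_one_iff_isFixedPt.mp hm1
    rw [dif_pos hfx]
    congr 2
    simp only [← hm, hm1, pow_one]

variable {N : Subgroup G}

/-- The value of `χ` at the conjugate of `u` attached to a coset of `N`. -/
noncomputable def cosetVal (χ : N →* A) (u : G) (c : G ⧸ N) : A :=
  if h : c.out⁻¹ * u * c.out ∈ N then χ ⟨_, h⟩ else 1

theorem conj_mem_iff {g u : G} : g⁻¹ * u * g ∈ N ↔ u • (g : G ⧸ N) = g := by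
  rw [MulAction.Quotient.smul_mk, QuotientGroup.eq, ← inv_mem_iff]
  simp [mul_assoc]

theorem cosetVal_eq (χ : N →* A) (u g : G) :
    cosetVal χ u (g : G ⧸ N) = if h : g⁻¹ * u * g ∈ N then χ ⟨_, h⟩ else 1 := by
  obtain ⟨⟨n, hn⟩, hout⟩ := QuotientGroup.mk_out_eq_mul N g
  unfold cosetVal
  have e : (g : G ⧸ N).out⁻¹ * u * (g : G ⧸ N).out = n⁻¹ * (g⁻¹ * u * g) * n := by
    rw [hout]; group
  by_cases h : g⁻¹ * u * g ∈ N
  · have h' : (g : G ⧸ N).out⁻¹ * u * (g : G ⧸ N).out ∈ N := e ▸ mul_mem (mul_mem (inv_mem hn) h) hn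
    rw [dif_pos h, dif_pos h']
    have : (⟨_, h'⟩ : N) = (⟨n, hn⟩ : N)⁻¹ * ⟨_, h⟩ * ⟨n, hn⟩ := Subtype.ext (by simp [e])
    rw [this, map_mul, map_mul, map_inv, mul_comm, mul_inv_cancel_left]
  · have h' : (g : G ⧸ N).out⁻¹ * u * (g : G ⧸ N).out ∉ N := fun h' => h (by
      have := mul_mem (mul_mem hn h') (inv_mem hn)
      rw [e] at this
      simpa [mul_assoc] using this)
    rw [dif_neg h, dif_neg h']

theorem cosetVal_smul (χ : N →* A) (h u : G) (c : G ⧸ N) :
    cosetVal χ u (h • c) = cosetVal χ (h⁻¹ * u * h) c := by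
  obtain ⟨g, rfl⟩ := QuotientGroup.mk_surjective c
  rw [MulAction.Quotient.smul_mk, cosetVal_eq, cosetVal_eq]
  have e : (h • g)⁻¹ * u * (h • g) = g⁻¹ * (h⁻¹ * u * h) * g := by simp [mul_assoc]
  by_cases hc : g⁻¹ * (h⁻¹ * u * h) * g ∈ N
  · rw [dif_pos hc, dif_pos (e ▸ hc)]
    exact congrArg χ (Subtype.ext e)
  · rw [dif_neg hc, dif_neg (fun h => hc (e ▸ h))]

theorem cosetVal_eq_one_of_not_fixed (χ : N →* A) {u : G} {c : G ⧸ N} (h : u • c ≠ c) :
    cosetVal χ u c = 1 := by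
  refine dif_neg fun hm => h ?_
  have := conj_mem_iff.mp hm
  rwa [QuotientGroup.out_eq'] at this

/-- **Yoshida's argument.** If the transfer of `χ : N(W) → A` differs from `χ` somewhere on `S`,
a character of a subgroup `R` of `S` is nontrivial on an iterated commutator. -/
theorem exists_transfer_witness [Finite G] [hp : Fact p.Prime] (hA : ∀ a : A, a ^ p = 1)
    (S : Sylow p G) (W : Subgroup G) (hW : Cfsg.IsWeaklyClosed W (S : Subgroup G))
    (hN : N = Subgroup.normalizer (W : Set G)) (χ : N →* A) [N.FiniteIndex]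
    (hne : ∃ (s : G) (hs : s ∈ (S : Subgroup G)) (hsN : s ∈ N), MonoidHom.transfer χ s ≠ χ ⟨s, hsN⟩) :
    ∃ (R : Subgroup G) (z : G) (hz : z ∈ Subgroup.normalizer (R : Set G)) (τ : R →* A) (x : G)
      (hx : x ∈ R), R ≤ (S : Subgroup G) ∧ z ∈ W ∧ z ∉ R ∧ z ^ p ∈ R ∧
        W ≤ R ⊔ Subgroup.zpowers z ∧
        τ ⟨(commMap z)^[p - 1] x, commMap_iterate_mem hz hx (p - 1)⟩ ≠ 1 := by
  classical
  letI : Fintype G := Fintype.ofFinite G
  letI : Fintype (G ⧸ N) := Fintype.ofFinite _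
  have hWS := hW.1
  have hSW : (S : Subgroup G) ≤ Subgroup.normalizer (W : Set G) := by
    intro s hs
    rw [Subgroup.mem_normalizer_iff_map_conj_eq]
    refine hW.2 s ?_
    conv_rhs => rw [← Subgroup.mem_normalizer_iff_map_conj_eq.mp (Subgroup.le_normalizer hs)]
    exact Subgroup.map_mono hWS
  have hSN : (S : Subgroup G) ≤ N := hN ▸ hSW
  by_contra hcon
  push Not at hcon
  obtain ⟨s₀, hs₀, hs₀N, hne⟩ := hne
  refine hne ?_
  suffices key : ∀ (k : ℕ) (s : G) (hs : s ∈ (S : Subgroup G)), orderOf s = k →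
      MonoidHom.transfer χ s = χ ⟨s, hSN hs⟩ from key _ s₀ hs₀ rfl
  intro k
  induction k using Nat.strong_induction_on with
  | _ k ih =>
  intro s hs hk
  rcases eq_or_ne s 1 with rfl | hs1
  · rw [map_one, show (⟨1, hSN hs⟩ : N) = 1 from rfl, map_one]
  obtain ⟨n, hn⟩ := S.isPGroup' ⟨s, hs⟩
  have hsn : s ^ p ^ n = 1 := congrArg Subtype.val hn
  -- conjugates of `p`-th multiples have value one
  have hvan : ∀ (m : ℕ) (g : G) (h : g⁻¹ * s ^ m * g ∈ N), p ∣ m → χ ⟨_, h⟩ = 1 := by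
    intro m g h hpm
    obtain ⟨l, rfl⟩ := hpm
    set t := g⁻¹ * s ^ (p * l) * g with ht
    have htp : IsPGroup p (Subgroup.zpowers (⟨t, h⟩ : N)) := by
      refine IsPGroup.of_card_dvd_pow (n := n) ?_
      rw [Nat.card_zpowers]
      refine orderOf_dvd_of_pow_eq_one (Subtype.ext ?_)
      show t ^ p ^ n = 1
      have e : t = g⁻¹ * s ^ (p * l) * g⁻¹⁻¹ := by rw [ht, inv_inv]
      rw [e, conj_pow, ← pow_mul, mul_comm, pow_mul, hsn, one_pow]
      group
    obtain ⟨Q, hQ⟩ := htp.exists_le_sylow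
    obtain ⟨a, ha⟩ := MulAction.exists_smul_eq N (S.subtype hSN) Q
    have htQ : (⟨t, h⟩ : N) ∈ (Q : Subgroup N) := hQ (Subgroup.mem_zpowers _)
    rw [← ha] at htQ
    obtain ⟨t', ht', hat⟩ := htQ
    have hat' : (⟨t, h⟩ : N) = a * t' * a⁻¹ := hat.symm
    have hχ : χ ⟨t, h⟩ = χ t' := by
      rw [hat', map_mul, map_mul, map_inv, mul_comm, inv_mul_cancel_left]
    have htS : (t' : G) ∈ (S : Subgroup G) := ht'
    have hVt : MonoidHom.transfer χ (t' : G) = 1 := by
      have e : (t' : G) = ((a : G)⁻¹ * g⁻¹) * s ^ (p * l) * ((a : G)⁻¹ * g⁻¹)⁻¹ := by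
        have e2 := congrArg Subtype.val hat'
        simp only [Subgroup.coe_mul, InvMemClass.coe_inv] at e2
        rw [ht] at e2
        calc (t' : G) = (a : G)⁻¹ * (a * t' * (a : G)⁻¹) * a := by group
          _ = _ := by rw [← e2]; group
      rw [e, map_mul, map_mul, map_inv, map_pow, pow_mul, hA, one_pow, mul_one, mul_inv_cancel]
    have hord : orderOf (t' : G) < k := by
      have h1 : orderOf (t' : G) = orderOf t := by
        rw [Subgroup.orderOf_coe, ← Subgroup.orderOf_mk t h, hat']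
        exact ((MulAut.conj a).orderOf_eq t').symm
      have h2 : orderOf t = orderOf (s ^ (p * l)) := by
        rw [ht]
        simpa using (MulAut.conj g⁻¹).orderOf_eq (s ^ (p * l))
      rw [h1, h2, ← hk]
      obtain ⟨i, -, hi⟩ := (Nat.dvd_prime_pow hp.out).mp (orderOf_dvd_of_pow_eq_one hsn)
      have hi0 : i ≠ 0 := fun h0 => hs1 (orderOf_eq_one_iff.mp (by rw [hi, h0, pow_zero]))
      rw [pow_mul]
      refine lt_of_le_of_lt (Nat.le_of_dvd (orderOf_pos _) (orderOf_pow_dvd l)) ?_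
      rw [orderOf_pow_of_dvd hp.out.ne_zero (hi ▸ dvd_pow_self p hi0)]
      exact Nat.div_lt_self (orderOf_pos s) hp.out.one_lt
    rw [hχ, ← show χ ⟨(t' : G), hSN htS⟩ = χ t' from rfl, ← ih _ hord _ htS rfl, hVt]
  -- the transfer as a product over fixed cosets
  have hV : MonoidHom.transfer χ s = ∏ c : G ⧸ N, cosetVal χ s c :=
    transfer_eq_prod_fixed N χ s hsn hvan
  -- the coset `N`
  have hN1 : cosetVal χ s ((1 : G) : G ⧸ N) = χ ⟨s, hSN hs⟩ := by
    rw [cosetVal_eq, dif_pos (by simpa using hSN hs)]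
    congr 1
    exact Subtype.ext (by simp)
  rw [hV, ← Finset.mul_prod_erase _ _ (Finset.mem_univ ((1 : G) : G ⧸ N)), hN1]
  refine mul_eq_left.mpr ?_
  -- group by orbits of `S`
  rw [← Finset.prod_fiberwise _
    (fun c : G ⧸ N => (Quotient.mk'' c : Quotient (MulAction.orbitRel (S : Subgroup G) (G ⧸ N))))]
  refine Finset.prod_eq_one fun q _ => ?_
  induction q using Quotient.inductionOn' with
  | h c₀ =>
  by_cases hc₀ : MulAction.orbitRel (S : Subgroup G) (G ⧸ N) c₀ ((1 : G) : G ⧸ N)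
  · refine Finset.prod_eq_one fun c hc => ?_
    rw [Finset.mem_filter, Finset.mem_erase] at hc
    have h1 := Setoid.trans' _ (Quotient.eq''.mp hc.2) hc₀
    obtain ⟨⟨t, ht⟩, htc⟩ := MulAction.orbitRel_apply.mp h1
    refine absurd ?_ hc.1.1
    rw [← htc]
    show ((t • (1 : G) : G) : G ⧸ N) = _
    rw [QuotientGroup.eq]
    simpa using hSN ht
  -- `W` moves the coset
  set R₀ := (S : Subgroup G) ⊓ MulAction.stabilizer G c₀ with hR₀
  have hWR₀ : ¬ W ≤ R₀ := by
    intro hle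
    obtain ⟨g, rfl⟩ := QuotientGroup.mk_surjective c₀
    apply hc₀
    rw [MulAction.orbitRel_apply]
    refine ⟨1, ?_⟩
    simp only [one_smul]
    rw [QuotientGroup.eq, inv_one, one_mul]
    have hconjN : W.map (MulAut.conj g⁻¹).toMonoidHom ≤ N := by
      rintro _ ⟨w, hw, rfl⟩
      have := conj_mem_iff.mpr (MulAction.mem_stabilizer_iff.mp (hle hw).2)
      simpa using this
    obtain ⟨Q, hQ⟩ := (((S.isPGroup'.to_le hWS).map (MulAut.conj g⁻¹).toMonoidHom).comap_of_injective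
      N.subtype N.subtype_injective).exists_le_sylow
    obtain ⟨a, ha⟩ := MulAction.exists_smul_eq N Q (S.subtype hSN)
    have hle2 : W.map (MulAut.conj ((a : G) * g⁻¹)).toMonoidHom ≤ (S : Subgroup G) := by
      rintro _ ⟨w, hw, rfl⟩
      have h1 : (⟨g⁻¹ * w * g, hconjN ⟨w, hw, by simp⟩⟩ : N) ∈ (Q : Subgroup N) :=
        hQ (show g⁻¹ * w * g ∈ W.map (MulAut.conj g⁻¹).toMonoidHom from ⟨w, hw, by simp⟩)
      have h2 : a * (⟨g⁻¹ * w * g, hconjN ⟨w, hw, by simp⟩⟩ : N) * a⁻¹ ∈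
          ((S.subtype hSN : Sylow p N) : Subgroup N) := by
        rw [← ha]; exact ⟨_, h1, rfl⟩
      have h3 : (a : G) * (g⁻¹ * w * g) * (a : G)⁻¹ ∈ (S : Subgroup G) := h2
      simpa [mul_assoc] using h3
    have hmem : (a : G) * g⁻¹ ∈ N :=
      hN.ge (Subgroup.mem_normalizer_iff_map_conj_eq.mpr (hW.2 _ hle2))
    have := mul_mem (inv_mem a.2) hmem
    simpa using inv_mem this
  -- `R` maximal above the stabiliser not containing `W`
  haveI : Fintype (Subgroup G) := Fintype.ofFinite _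
  obtain ⟨R, hR, hRmax⟩ := Finset.exists_max_image
    (Finset.univ.filter fun X : Subgroup G => R₀ ≤ X ∧ X ≤ (S : Subgroup G) ∧ ¬ W ≤ X)
    (fun X => Nat.card X) ⟨R₀, Finset.mem_filter.mpr ⟨Finset.mem_univ _, le_rfl, inf_le_left, hWR₀⟩⟩
  simp only [Finset.mem_filter, Finset.mem_univ, true_and] at hR hRmax
  obtain ⟨hR₀R, hRS, hWR⟩ := hR
  set T := R ⊔ W with hT
  have hTS : T ≤ (S : Subgroup G) := sup_le hRS hWS
  have hbig : ∀ X : Subgroup G, R < X → X ≤ T → X = T := by
    intro X hRX hXT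
    refine le_antisymm hXT (sup_le hRX.le ?_)
    by_contra hWX
    exact absurd (Subgroup.eq_of_le_of_card_ge hRX.le
      (hRmax X ⟨hR₀R.trans hRX.le, hXT.trans hTS, hWX⟩)) hRX.ne
  have hRT : R < T := lt_of_le_not_ge le_sup_left fun h => hWR (le_sup_right.trans h)
  have hTN : T ≤ Subgroup.normalizer (R : Set G) := by
    have h1 := CfsgLib.Transfer.lt_inf_normalizer_of_lt (S.isPGroup'.to_le hTS) hRT
    exact (hbig _ h1 inf_le_left).ge.trans inf_le_right
  haveI hRn : (R.subgroupOf T).Normal :=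
    (Subgroup.normal_subgroupOf_iff_le_normalizer hRT.le).mpr hTN
  obtain ⟨z, hzW, hzR⟩ := SetLike.not_le_iff_exists.mp hWR
  have hzT : z ∈ T := Subgroup.mem_sup_right hzW
  have hzN : z ∈ Subgroup.normalizer (R : Set G) := hTN hzT
  have hgen : R ⊔ Subgroup.zpowers z = T := by
    refine hbig _ (lt_of_le_not_ge le_sup_left fun h => hzR (h (Subgroup.mem_sup_right
      (Subgroup.mem_zpowers z)))) (sup_le hRT.le (Subgroup.zpowers_le.mpr hzT))
  have hzp : z ^ p ∈ R := by
    by_contra hzp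
    have h2 : R ⊔ Subgroup.zpowers (z ^ p) = T := hbig _ (lt_of_le_not_ge le_sup_left fun h => hzp
      (h (Subgroup.mem_sup_right (Subgroup.mem_zpowers _))))
      (sup_le hRT.le (Subgroup.zpowers_le.mpr (pow_mem hzT p)))
    have h3 : z ∈ R ⊔ Subgroup.zpowers (z ^ p) := h2.symm ▸ hzT
    rw [← SetLike.mem_coe, sup_comm, Subgroup.coe_mul_of_left_le_normalizer_right _ R
      (Subgroup.zpowers_le.mpr (pow_mem hzN p))] at h3
    obtain ⟨_, ⟨i, rfl⟩, r, hr, hzr⟩ := h3
    obtain ⟨e, he⟩ := S.isPGroup' ⟨z, hTS hzT⟩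
    have hze : z ^ p ^ e = 1 := congrArg Subtype.val he
    -- `z ^ (1 - p i) ∈ R` with exponent prime to the order
    have hmem : z ^ ((1 : ℤ) - p * i) ∈ R := by
      have h4 : z ^ ((1 : ℤ) - p * i) = ((z ^ p) ^ i)⁻¹ * z := by
        rw [← zpow_natCast, ← zpow_mul, ← zpow_neg, ← zpow_add_one]
        congr 1
        ring
      rw [h4]
      have : ((z ^ p) ^ i)⁻¹ * z = r := by
        change (z ^ p) ^ i * r = z at hzr
        rw [inv_mul_eq_iff_eq_mul, hzr]
      rw [this]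
      exact hr
    have hcop : IsCoprime ((1 : ℤ) - p * i) ((p ^ e : ℕ) : ℤ) := by
      rw [Nat.cast_pow]
      refine IsCoprime.pow_right ⟨1, i, by ring⟩
    obtain ⟨a, b, hab⟩ := hcop
    have : z = (z ^ ((1 : ℤ) - p * i)) ^ a := by
      rw [← zpow_mul]
      conv_lhs => rw [← zpow_one z, ← hab, zpow_add, mul_comm b, zpow_mul z ((p ^ e : ℕ) : ℤ) b,
        zpow_natCast, hze, one_zpow, mul_one, mul_comm]
    exact hzR (this ▸ zpow_mem hmem a)
  -- the orbit of `c₀` as a quotient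
  set RS := R₀.subgroupOf (S : Subgroup G) with hRS'
  set TS := T.subgroupOf (S : Subgroup G) with hTS'
  have hRT' : RS ≤ TS := fun x hx => hRT.le (hR₀R hx)
  letI : Fintype ((S : Subgroup G) ⧸ RS) := Fintype.ofFinite _
  letI : Fintype ((S : Subgroup G) ⧸ TS) := Fintype.ofFinite _
  let i : (S : Subgroup G) ⧸ RS → G ⧸ N := fun x => (x.out : G) • c₀
  have hi : ∀ h : (S : Subgroup G), i (QuotientGroup.mk h) = (h : G) • c₀ := by
    intro h
    obtain ⟨⟨r, hr⟩, hout⟩ := QuotientGroup.mk_out_eq_mul RS h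
    show (((QuotientGroup.mk h : (S : Subgroup G) ⧸ RS).out : (S : Subgroup G)) : G) • c₀ = _
    rw [hout, Subgroup.coe_mul, mul_smul, MulAction.mem_stabilizer_iff.mp (show (r : G) ∈
      MulAction.stabilizer G c₀ from (Subgroup.mem_subgroupOf.mp hr).2)]
  have hiinj : Function.Injective i := by
    intro x y hxy
    obtain ⟨a, rfl⟩ := QuotientGroup.mk_surjective x
    obtain ⟨b, rfl⟩ := QuotientGroup.mk_surjective y
    rw [hi, hi] at hxy
    rw [QuotientGroup.eq, Subgroup.mem_subgroupOf]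
    refine ⟨(a⁻¹ * b).2, MulAction.mem_stabilizer_iff.mpr ?_⟩
    rw [Subgroup.coe_mul, InvMemClass.coe_inv, mul_smul, ← hxy, inv_smul_smul]
  have horbit : ∏ c ∈ (Finset.univ.erase ((1 : G) : G ⧸ N)).filter
      (fun c => (Quotient.mk'' c : Quotient (MulAction.orbitRel (S : Subgroup G) (G ⧸ N))) =
        Quotient.mk'' c₀), cosetVal χ s c = ∏ x : (S : Subgroup G) ⧸ RS, cosetVal χ s (i x) := by
    symm
    refine Finset.prod_bij (fun x _ => i x) ?_ (fun x _ y _ h => hiinj h) ?_ (fun _ _ => rfl)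
    · intro x _
      rw [Finset.mem_filter, Finset.mem_erase]
      refine ⟨⟨fun h => hc₀ ?_, Finset.mem_univ _⟩, Quotient.eq''.mpr ⟨x.out, rfl⟩⟩
      refine Setoid.symm' _ (MulAction.orbitRel_apply.mpr ⟨x.out, ?_⟩)
      exact h
    · intro c hc
      rw [Finset.mem_filter] at hc
      obtain ⟨h, hh⟩ := MulAction.orbitRel_apply.mp (Quotient.eq''.mp hc.2)
      exact ⟨QuotientGroup.mk h, Finset.mem_univ _, (hi h).trans hh⟩
  rw [horbit]
  -- blocks
  let π : (S : Subgroup G) ⧸ RS → (S : Subgroup G) ⧸ TS := fun x => QuotientGroup.mk x.out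
  have hπ : ∀ h : (S : Subgroup G), π (QuotientGroup.mk h) = QuotientGroup.mk h := by
    intro h
    obtain ⟨⟨r, hr⟩, hout⟩ := QuotientGroup.mk_out_eq_mul RS h
    show QuotientGroup.mk (QuotientGroup.mk h : (S : Subgroup G) ⧸ RS).out = _
    rw [hout, QuotientGroup.eq]
    simpa using TS.inv_mem (hRT' hr)
  rw [← Finset.prod_fiberwise Finset.univ π]
  refine Finset.prod_eq_one fun y _ => ?_
  obtain ⟨h, rfl⟩ := QuotientGroup.mk_surjective y
  set s' := (h : G)⁻¹ * s * h with hs'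
  -- reduce the block to the orbit of `T`
  set O := Finset.univ.filter (fun c : G ⧸ N => ∃ t ∈ T, t • c₀ = c) with hO
  have hblock : ∏ x ∈ Finset.univ.filter (fun x => π x = QuotientGroup.mk h), cosetVal χ s (i x) =
      ∏ c ∈ O, cosetVal χ s' c := by
    refine Finset.prod_bij (fun x _ => (h : G)⁻¹ • i x) ?_ ?_ ?_ ?_
    · intro x hx
      rw [Finset.mem_filter] at hx
      obtain ⟨a, rfl⟩ := QuotientGroup.mk_surjective x
      rw [hπ, QuotientGroup.eq, Subgroup.mem_subgroupOf] at hx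
      rw [hO, Finset.mem_filter]
      refine ⟨Finset.mem_univ _, (h : G)⁻¹ * a, ?_, by rw [hi, mul_smul]⟩
      simpa using inv_mem hx.2
    · intro x _ y _ hxy
      exact hiinj (MulAction.injective _ hxy)
    · intro c hc
      rw [hO, Finset.mem_filter] at hc
      obtain ⟨-, t, ht, rfl⟩ := hc
      refine ⟨QuotientGroup.mk (h * ⟨t, hTS ht⟩), ?_, ?_⟩
      · rw [Finset.mem_filter, hπ, QuotientGroup.eq, Subgroup.mem_subgroupOf]
        refine ⟨Finset.mem_univ _, ?_⟩
        simpa using inv_mem ht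
      · rw [hi, Subgroup.coe_mul, mul_smul, inv_smul_smul]
    · intro x _
      rw [hs', ← cosetVal_smul, smul_inv_smul]
  rw [hblock]
  by_cases hs'R : s' ∈ R
  swap
  · refine Finset.prod_eq_one fun c hc => cosetVal_eq_one_of_not_fixed χ fun hfix => hs'R ?_
    rw [hO, Finset.mem_filter] at hc
    obtain ⟨-, t, ht, rfl⟩ := hc
    have hs'S : s' ∈ (S : Subgroup G) := mul_mem (mul_mem (inv_mem h.2) hs) h.2
    have h1 : t⁻¹ * s' * t ∈ R₀ := by
      refine Subgroup.mem_inf.mpr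
        ⟨mul_mem (mul_mem (inv_mem (hTS ht)) hs'S) (hTS ht), MulAction.mem_stabilizer_iff.mpr ?_⟩
      rw [mul_smul, mul_smul, hfix, inv_smul_smul]
    exact (Subgroup.mem_normalizer_iff''.mp (hTN ht) s').mpr (hR₀R h1)
  -- the orbit of `T` consists of `p` orbits of `R`
  set O₀ := Finset.univ.filter (fun c : G ⧸ N => ∃ r ∈ R, r • c₀ = c) with hO₀
  have hpow : ∀ k : ℤ, z ^ k ∈ R → (p : ℤ) ∣ k := by
    intro k hk
    by_contra hndvd
    obtain ⟨a, b, hab⟩ := (Nat.prime_iff_prime_int.mp hp.out).coprime_iff_not_dvd.mpr hndvd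
    refine hzR ?_
    rw [← zpow_one z, ← hab, zpow_add, mul_comm a, zpow_mul, zpow_natCast, mul_comm b, zpow_mul]
    exact mul_mem (zpow_mem hzp a) (zpow_mem hk b)
  have hsplit : ∏ c ∈ O, cosetVal χ s' c =
      ∏ k ∈ Finset.range p, ∏ c ∈ O₀, cosetVal χ ((z ^ k)⁻¹ * s' * z ^ k) c := by
    rw [← Finset.prod_product']
    symm
    refine Finset.prod_bij (fun kc _ => z ^ kc.1 • kc.2) ?_ ?_ ?_ ?_
    · rintro ⟨k, c⟩ hkc
      rw [Finset.mem_product, hO₀, Finset.mem_filter] at hkc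
      obtain ⟨-, -, r, hr, rfl⟩ := hkc
      rw [hO, Finset.mem_filter]
      exact ⟨Finset.mem_univ _, z ^ k * r, mul_mem (pow_mem hzT k) (hRT.le hr), mul_smul _ _ _⟩
    · rintro ⟨k, c⟩ hkc ⟨k', c'⟩ hkc' heq
      rw [Finset.mem_product, hO₀, Finset.mem_filter, Finset.mem_range] at hkc hkc'
      obtain ⟨hk, -, r, hr, rfl⟩ := hkc
      obtain ⟨hk', -, r', hr', rfl⟩ := hkc'
      change z ^ k • r • c₀ = z ^ k' • r' • c₀ at heq
      have h1 : r'⁻¹ * (z ^ k')⁻¹ * z ^ k * r ∈ R := by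
        refine hR₀R (Subgroup.mem_inf.mpr ⟨mul_mem (mul_mem (mul_mem (inv_mem (hRS hr'))
          (inv_mem (pow_mem (hTS hzT) k'))) (pow_mem (hTS hzT) k)) (hRS hr), ?_⟩)
        refine MulAction.mem_stabilizer_iff.mpr ?_
        rw [mul_smul, mul_smul, mul_smul, heq, inv_smul_smul, inv_smul_smul]
      have h2 : z ^ ((k : ℤ) - k') ∈ R := by
        have := mul_mem (mul_mem hr' h1) (inv_mem hr)
        rw [show r' * (r'⁻¹ * (z ^ k')⁻¹ * z ^ k * r) * r⁻¹ = (z ^ k')⁻¹ * z ^ k by group] at this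
        rwa [← zpow_natCast, ← zpow_natCast, ← zpow_neg, ← zpow_add, neg_add_eq_sub] at this
      obtain rfl : k = k' := by
        have h3 := Int.eq_zero_of_abs_lt_dvd (hpow _ h2) (by rw [abs_lt]; omega)
        omega
      rw [MulAction.injective _ heq]
    · intro c hc
      rw [hO, Finset.mem_filter] at hc
      obtain ⟨-, t, ht, rfl⟩ := hc
      rw [← hgen, sup_comm, ← SetLike.mem_coe,
        Subgroup.coe_mul_of_left_le_normalizer_right _ R (Subgroup.zpowers_le.mpr hzN)] at ht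
      obtain ⟨_, ⟨j, rfl⟩, r, hr, rfl⟩ := ht
      set k := (j % p).toNat with hk
      have hkj : (k : ℤ) = j % p := Int.toNat_of_nonneg (Int.emod_nonneg _ (by exact_mod_cast hp.out.ne_zero))
      refine ⟨(k, (z ^ p) ^ (j / (p : ℤ)) • r • c₀), ?_, ?_⟩
      · rw [Finset.mem_product, hO₀, Finset.mem_filter, Finset.mem_range]
        refine ⟨?_, Finset.mem_univ _, (z ^ p) ^ (j / (p : ℤ)) * r, mul_mem (zpow_mem hzp _) hr,
          mul_smul _ _ _⟩
        have := Int.emod_lt_of_pos j (by exact_mod_cast hp.out.pos : (0 : ℤ) < p)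
        omega
      · show z ^ k • (z ^ p) ^ (j / (p : ℤ)) • r • c₀ = (z ^ j * r) • c₀
        rw [mul_smul, smul_smul, ← zpow_natCast z k, hkj, ← zpow_natCast z p, ← zpow_mul, ← zpow_add]
        congr 2
        exact Int.emod_add_mul_ediv j p
    · rintro ⟨k, c⟩ _
      exact (cosetVal_smul χ (z ^ k) s' c).symm
  rw [hsplit]
  -- the character on `R`
  set H := MulAction.stabilizer R c₀ with hH
  let g₀ := c₀.out
  have hg₀ : (g₀ : G ⧸ N) = c₀ := QuotientGroup.out_eq' c₀
  have hθmem : ∀ x : H, g₀⁻¹ * ((x : R) : G) * g₀ ∈ N := fun x =>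
    conj_mem_iff.mpr (by rw [hg₀]; exact x.2)
  let θ : H →* A := MonoidHom.mk' (fun x => χ ⟨_, hθmem x⟩) fun x y => by
    rw [← map_mul]
    congr 1
    exact Subtype.ext (by simp [mul_assoc])
  letI : Fintype R := Fintype.ofFinite _
  letI : Fintype (R ⧸ H) := Fintype.ofFinite _
  set τ := MonoidHom.transfer θ with hτ
  have hτval : ∀ (k : ℕ) (hmem : (z ^ k)⁻¹ * s' * z ^ k ∈ R),
      τ ⟨_, hmem⟩ = ∏ c ∈ O₀, cosetVal χ ((z ^ k)⁻¹ * s' * z ^ k) c := by
    intro k hmem
    set u := (z ^ k)⁻¹ * s' * z ^ k with hu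
    have hconj : u = ((h : G) * z ^ k)⁻¹ * s * ((h : G) * z ^ k) := by rw [hu, hs']; group
    have hun : u ^ p ^ n = 1 := by
      rw [hconj]
      conv_lhs => enter [1, 2]; rw [← inv_inv ((h : G) * z ^ k)]
      rw [conj_pow, hsn]
      group
    rw [hτ, transfer_eq_prod_fixed (p := p) (n := n) H θ ⟨u, hmem⟩ (Subtype.ext (by simpa using hun))]
    · refine Finset.prod_bij (fun x _ => (x.out : G) • c₀) ?_ ?_ ?_ ?_
      · intro x _
        rw [hO₀, Finset.mem_filter]
        exact ⟨Finset.mem_univ _, x.out, x.out.2, rfl⟩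
      · intro x _ y _ hxy
        rw [← QuotientGroup.out_eq' x, ← QuotientGroup.out_eq' y, QuotientGroup.eq]
        refine MulAction.mem_stabilizer_iff.mpr ?_
        show ((x.out⁻¹ * y.out : R) : G) • c₀ = c₀
        rw [Subgroup.coe_mul, InvMemClass.coe_inv, mul_smul, ← hxy, inv_smul_smul]
      · intro c hc
        rw [hO₀, Finset.mem_filter] at hc
        obtain ⟨-, r, hr, rfl⟩ := hc
        refine ⟨QuotientGroup.mk ⟨r, hr⟩, Finset.mem_univ _, ?_⟩
        obtain ⟨⟨a, ha⟩, hout⟩ := QuotientGroup.mk_out_eq_mul H (⟨r, hr⟩ : R)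
        rw [hout, Subgroup.coe_mul, mul_smul]
        congr 1
      · intro x _
        rw [cosetVal_smul, ← hg₀, cosetVal_eq]
        by_cases hx : x.out⁻¹ * (⟨u, hmem⟩ : R) * x.out ∈ H
        · rw [dif_pos hx, dif_pos (show g₀⁻¹ * ((x.out : G)⁻¹ * u * (x.out : G)) * g₀ ∈ N from
            hθmem ⟨_, hx⟩)]
          rfl
        · rw [dif_neg hx, dif_neg]
          intro hm
          refine hx (MulAction.mem_stabilizer_iff.mpr ?_)
          have := conj_mem_iff.mp hm
          rw [hg₀] at this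
          exact this
    · intro m r hr hpm
      have hm' : ((h : G) * z ^ k * r * g₀)⁻¹ * s ^ m * ((h : G) * z ^ k * r * g₀) ∈ N := by
        have h1 : u ^ m = ((h : G) * z ^ k)⁻¹ * s ^ m * ((h : G) * z ^ k) := by
          rw [hconj]
          conv_lhs => enter [1, 2]; rw [← inv_inv ((h : G) * z ^ k)]
          rw [conj_pow, inv_inv]
        have := hθmem ⟨_, hr⟩
        simp only [Subgroup.coe_mul, InvMemClass.coe_inv, Subgroup.coe_pow, h1] at this
        simpa [mul_assoc] using this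
      rw [← hvan m _ hm' hpm]
      refine congrArg χ (Subtype.ext ?_)
      show g₀⁻¹ * ((r : G)⁻¹ * u ^ m * r) * g₀ = _
      rw [hconj]
      conv_lhs => enter [1, 2, 1, 2, 1, 2]; rw [← inv_inv ((h : G) * z ^ k)]
      rw [conj_pow]
      group
  have hmem : ∀ k : ℕ, (z ^ k)⁻¹ * s' * z ^ k ∈ R := fun k =>
    (Subgroup.mem_normalizer_iff''.mp (pow_mem hzN k) s').mp hs'R
  rw [Finset.prod_congr rfl fun k _ => (hτval k (hmem k)).symm, prod_conj_eq hA hzN τ hs'R]
  exact hcon R z hzN τ s' hs'R hRS hzW hzR hzp (hgen ▸ le_sup_right)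

end CfsgLib.CharP
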