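import Mathlib
import Cfsg.Agent.CharP.WeakTransfer
import Cfsg.Agent.CharP.FrattiniElem

/-!
Consequence of Yoshida's argument: if `S ∩ G' ≠ S ∩ N(W)'` a character of exponent `p` of `N(W)`
differs from its transfer on `S`.
-/

set_option autoImplicit false

open scoped commutatorElement

namespace CfsgLib.CharP

variable {G : Type*} [Group G] {p : ℕ}

theorem map_transfer {N : Subgroup G} [N.FiniteIndex] {A B : Type*} [CommGroup A] [CommGroup B]
    (χ : N →* A) (f : A →* B) (g : G) :
    MonoidHom.transfer (f.comp χ) g = f (MonoidHom.transfer χ g) := by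
  rw [MonoidHom.transfer_def (f.comp χ) default, MonoidHom.transfer_def χ default]
  simp only [Subgroup.leftTransversals.diff, map_prod, MonoidHom.comp_apply]

/-- Yoshida's reduction, with the witness of `exists_transfer_witness`. -/
theorem exists_witness_of_inter_ne.{u} {G : Type u} [Group G] [Finite G] [hp : Fact p.Prime] (S : Sylow p G) (W : Subgroup G)
    (hW : Cfsg.IsWeaklyClosed W (S : Subgroup G))
    (h : (S : Subgroup G) ⊓ commutator G ≠
      (S : Subgroup G) ⊓ ⁅Subgroup.normalizer (W : Set G), Subgroup.normalizer (W : Set G)⁆) :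
    ∃ (A : Type u) (_ : CommGroup A) (_ : ∀ a : A, a ^ p = 1),
      ∃ (R : Subgroup G) (z : G) (hz : z ∈ Subgroup.normalizer (R : Set G)) (τ : R →* A) (x : G)
        (hx : x ∈ R), R ≤ (S : Subgroup G) ∧ z ∈ W ∧ z ∉ R ∧ z ^ p ∈ R ∧
          W ≤ R ⊔ Subgroup.zpowers z ∧
          τ ⟨(commMap z)^[p - 1] x, commMap_iterate_mem hz hx (p - 1)⟩ ≠ 1 := by
  classical
  set N := Subgroup.normalizer (W : Set G) with hN
  have hSN : (S : Subgroup G) ≤ N := by
    intro s hs
    rw [hN, Subgroup.mem_normalizer_iff_map_conj_eq]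
    refine hW.2 s ?_
    conv_rhs => rw [← Subgroup.mem_normalizer_iff_map_conj_eq.mp (Subgroup.le_normalizer hs)]
    exact Subgroup.map_mono hW.1
  -- the `p`-part of the abelianisation
  obtain ⟨e, m, hm, hcard⟩ := Nat.exists_eq_pow_mul_and_not_dvd
    (Nat.card_pos (α := Abelianization N)).ne' p hp.out.ne_one
  set π := (powMonoidHom m : Abelianization N →* Abelianization N) with hπ
  set P := π.range with hP
  have hPp : IsPGroup p P := by
    rintro ⟨_, y, rfl⟩
    refine ⟨e, Subtype.ext ?_⟩
    show (y ^ m) ^ p ^ e = 1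
    rw [← pow_mul, mul_comm, ← hcard, pow_card_eq_one']
  set α : N →* P := π.rangeRestrict.comp Abelianization.of with hα
  have hαsurj : Function.Surjective α :=
    π.rangeRestrict_surjective.comp (QuotientGroup.mk'_surjective _)
  set SN := S.subtype hSN with hSN'
  have hαS : Function.Surjective (α.comp (Subgroup.inclusion hSN)) := by
    have htop : ((SN.mapSurjective hαsurj : Sylow p P) : Subgroup P) = ⊤ :=
      ((SN.mapSurjective hαsurj).3 (hPp.to_subgroup ⊤) le_top).symm
    intro y
    obtain ⟨x, hx, hxy⟩ := (Sylow.coe_mapSurjective hαsurj SN ▸ htop).ge (Subgroup.mem_top y)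
    exact ⟨⟨x, hx⟩, hxy⟩
  set φ := (MonoidHom.transfer α).comp (S : Subgroup G).subtype with hφ
  set Pp := (powMonoidHom p : P →* P).range with hPp'
  set β := QuotientGroup.mk' Pp with hβ
  have hA : ∀ a : P ⧸ Pp, a ^ p = 1 := by
    intro a
    obtain ⟨y, rfl⟩ := QuotientGroup.mk_surjective a
    rw [← QuotientGroup.mk_pow, QuotientGroup.eq_one_iff]
    exact ⟨y, rfl⟩
  refine ⟨P ⧸ Pp, inferInstance, hA, exists_transfer_witness hA S W hW hN (β.comp α) ?_⟩
  by_contra hcon
  push Not at hcon
  have hmod : ∀ s : (S : Subgroup G), (φ s)⁻¹ * α (Subgroup.inclusion hSN s) ∈ Pp := by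
    intro s
    have h1 := hcon s s.2 (hSN s.2)
    rw [map_transfer] at h1
    exact QuotientGroup.eq.mp h1
  -- `φ` is onto `P`
  have hφsurj : Function.Surjective φ := by
    have hstep : ∀ (i : ℕ) (y : P), ∃ s : (S : Subgroup G), ∃ w : P, y = φ s * w ^ p ^ i := by
      intro i
      induction i with
      | zero => exact fun y => ⟨1, y, by simp⟩
      | succ i ih =>
        intro y
        obtain ⟨s, w, rfl⟩ := ih y
        obtain ⟨t, ht⟩ := hαS w
        obtain ⟨v, hv⟩ := hmod t
        refine ⟨s * t ^ p ^ i, v, ?_⟩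
        have hw : w = φ t * v ^ p := by
          change v ^ p = _ at hv
          rw [hv, MonoidHom.comp_apply] at *
          rw [ht, mul_inv_cancel_left]
        rw [hw, mul_pow, map_mul, map_pow, ← pow_mul, pow_succ', mul_assoc]
    intro y
    obtain ⟨k, hk⟩ := hPp.exists_card_eq
    obtain ⟨s, w, rfl⟩ := hstep k y
    exact ⟨s, by rw [← hk, pow_card_eq_one', mul_one]⟩
  -- kernels
  set αS := α.comp (Subgroup.inclusion hSN)
  have hker1 : (commutator G).subgroupOf (S : Subgroup G) ≤ φ.ker := by
    intro s hs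
    exact Abelianization.commutator_subset_ker (MonoidHom.transfer α) hs
  have hker2 : αS.ker ≤ (⁅N, N⁆).subgroupOf (S : Subgroup G) := by
    intro s hs
    have h1 : (Abelianization.of (Subgroup.inclusion hSN s)) ^ m = 1 := congrArg Subtype.val hs
    obtain ⟨k, hk⟩ := S.isPGroup' s
    have h2 : (Abelianization.of (Subgroup.inclusion hSN s)) ^ p ^ k = 1 := by
      rw [← map_pow, ← map_pow, hk, map_one, map_one]
    have h3 : orderOf (Abelianization.of (Subgroup.inclusion hSN s)) = 1 :=
      Nat.eq_one_of_dvd_coprimes ((hp.out.coprime_iff_not_dvd.mpr hm).pow_left k)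
        (orderOf_dvd_of_pow_eq_one h2) (orderOf_dvd_of_pow_eq_one h1)
    have h4 : Subgroup.inclusion hSN s ∈ commutator N :=
      (QuotientGroup.eq_one_iff _).mp (orderOf_eq_one_iff.mp h3)
    have h5 := Subgroup.mem_map_of_mem N.subtype h4
    rw [Subgroup.map_subtype_commutator] at h5
    exact h5
  have hle : (⁅N, N⁆).subgroupOf (S : Subgroup G) ≤ (commutator G).subgroupOf (S : Subgroup G) :=
    fun s hs => Subgroup.commutator_mono le_top le_top hs
  have hcardeq : Nat.card φ.ker = Nat.card αS.ker := by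
    have h1 := φ.ker.card_mul_index
    have h2 := αS.ker.card_mul_index
    rw [Subgroup.index_ker, MonoidHom.range_eq_top.mpr hφsurj, Subgroup.card_top] at h1
    rw [Subgroup.index_ker, MonoidHom.range_eq_top.mpr hαS, Subgroup.card_top] at h2
    exact mul_right_cancel₀ (Nat.card_pos (α := P)).ne' (h1.trans h2.symm)
  have heq : αS.ker = φ.ker :=
    Subgroup.eq_of_le_of_card_ge ((hker2.trans hle).trans hker1) hcardeq.le
  refine h (le_antisymm ?_ (inf_le_inf_left _ (Subgroup.commutator_mono le_top le_top)))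
  intro s hs
  exact ⟨hs.1, hker2 (heq.ge (hker1 (show (⟨s, hs.1⟩ : (S : Subgroup G)) ∈ _ from hs.2)))⟩

end CfsgLib.CharP
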